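import Mathlib
import Cfsg.Agent.Lib.Helper6.BG.S1437Defs
import Cfsg.Agent.Lib.Helper48.Coprime
import Cfsg.Agent.Lib.Helper23.Compl
import Cfsg.Agent.Lib.Helper53.PGroups

/-!
# Shared infrastructure for the packages PK6c, PK6d, PK6e of the S1437 team project

`Q₁ = ⁅Q, D₁⁆`, `Y₀ = ⁅Q₁, Q₁⁆`; invariance facts and the "uniqueness template".
-/

set_option autoImplicit false

namespace Cfsg.Agent.Lib.Helper12.BG37

open Cfsg Cfsg.Agent.Lib.Helper6.BG37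

universe u

variable {G : Type u} [Group G] [Finite G]

/-- The facts extracted from `Cfg` and `QD` that the packages PK6c/d/e use. -/
structure Facts (q : ℕ) (K Q D₁ : Subgroup G) : Prop where
  hq : q.Prime
  hQq : IsPGroup q Q
  hDq : ¬ q ∣ Nat.card D₁
  hDQ : ∀ d ∈ D₁, ∀ x ∈ Q, d * x * d⁻¹ ∈ Q
  hKQ : ∀ k ∈ K, ∀ x ∈ Q, k * x * k⁻¹ ∈ Q
  hKD : ∀ k ∈ K, ∀ d ∈ D₁, k * d * k⁻¹ ∈ D₁

theorem card_eq_relIndex_of_isComplIn {Q D N : Subgroup G} (h : Cfsg.IsComplIn Q D N) :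
    Q.relIndex N = Nat.card D := by
  have h1 := Cfsg.Agent.Lib.Helper23.card_of_isComplIn h
  have h2 : Nat.card (Q.subgroupOf N) * (Q.subgroupOf N).index = Nat.card N :=
    Subgroup.card_mul_index _
  have h3 : Nat.card (Q.subgroupOf N) = Nat.card Q :=
    Nat.card_congr (Subgroup.subgroupOfEquivOfLe h.1).toEquiv
  rw [h3, h1] at h2
  have h4 : 0 < Nat.card Q := Nat.card_pos
  exact Nat.eq_of_mul_eq_mul_left h4 h2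

theorem facts_of {q : ℕ} {N K Q D₁ : Subgroup G} (hC : Cfg q N K) (hQD : QD q N K Q D₁) :
    Facts q K Q D₁ := by
  have hDN : D₁ ≤ N := hQD.hD.2.1
  refine ⟨hC.hq, hQD.hQq, ?_, ?_, ?_, ?_⟩
  · rw [← card_eq_relIndex_of_isComplIn hQD.hD]
    exact hQD.hQsyl
  · exact Subgroup.le_normalizer_iff.mp (hDN.trans hQD.hNQ)
  · exact Subgroup.le_normalizer_iff.mp hQD.hKQ
  · exact Subgroup.le_normalizer_iff.mp hQD.hKD

/-- One-sided conjugation invariance under a subgroup gives containment in the normalizer. -/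
theorem le_normalizer_of_conj {H Y : Subgroup G} (h : ∀ g ∈ H, ∀ y ∈ Y, g * y * g⁻¹ ∈ Y) :
    H ≤ Subgroup.normalizer (Y : Set G) :=
  Subgroup.le_normalizer_iff.mpr h

/-- Membership in the derived subgroup of a subgroup, seen in the ambient group. -/
theorem mem_commutator_subtype_iff (H : Subgroup G) (z : H) :
    z ∈ commutator H ↔ (z : G) ∈ ⁅H, H⁆ := by
  have h1 : (commutator H).map H.subtype = ⁅H, H⁆ := by
    rw [commutator_def, Subgroup.map_commutator, ← MonoidHom.range_eq_map, Subgroup.range_subtype]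
  rw [← h1]
  exact (Subgroup.mem_map_iff_mem H.subtype_injective (K := commutator H) (x := z)).symm

section facts

variable {q : ℕ} {K Q D₁ : Subgroup G}

theorem Facts.q1_le (_hF : Facts q K Q D₁) : ⁅Q, D₁⁆ ≤ Q :=
  Cfsg.Agent.Lib.Helper48.commutator_le_of_le_normalizer Q D₁ (le_normalizer_of_conj _hF.hDQ)

theorem Facts.q1_pgroup (hF : Facts q K Q D₁) : IsPGroup q ↥⁅Q, D₁⁆ :=
  hF.hQq.to_le hF.q1_le

theorem Facts.conjQ_q1 (_hF : Facts q K Q D₁) : ∀ g ∈ Q, ∀ y ∈ ⁅Q, D₁⁆, g * y * g⁻¹ ∈ ⁅Q, D₁⁆ :=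
  fun g hg => Cfsg.Agent.Lib.Helper48.conj_mem_commutator_left g hg

theorem Facts.conjD_q1 (hF : Facts q K Q D₁) : ∀ g ∈ D₁, ∀ y ∈ ⁅Q, D₁⁆, g * y * g⁻¹ ∈ ⁅Q, D₁⁆ :=
  fun g hg => Cfsg.Agent.Lib.Helper48.conj_mem_commutator g (hF.hDQ g hg)
    (fun k hk => D₁.mul_mem (D₁.mul_mem hg hk) (D₁.inv_mem hg))

theorem Facts.conjK_q1 (hF : Facts q K Q D₁) : ∀ g ∈ K, ∀ y ∈ ⁅Q, D₁⁆, g * y * g⁻¹ ∈ ⁅Q, D₁⁆ :=
  fun g hg => Cfsg.Agent.Lib.Helper48.conj_mem_commutator g (hF.hKQ g hg) (hF.hKD g hg)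

/-- Whatever normalizes `Q₁` normalizes `Y₀ = ⁅Q₁, Q₁⁆`. -/
theorem conj_y0 {Q₁ : Subgroup G} (g : G) (h : ∀ y ∈ Q₁, g * y * g⁻¹ ∈ Q₁) :
    ∀ y ∈ ⁅Q₁, Q₁⁆, g * y * g⁻¹ ∈ ⁅Q₁, Q₁⁆ :=
  Cfsg.Agent.Lib.Helper48.conj_mem_commutator g h h

theorem y0_le (Q₁ : Subgroup G) : ⁅Q₁, Q₁⁆ ≤ Q₁ :=
  Cfsg.Agent.Lib.Helper48.commutator_le_of_le_normalizer Q₁ Q₁ Subgroup.le_normalizer

/-- The derived subgroup of a nontrivial `q`-group is proper. -/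
theorem y0_lt {q : ℕ} (hq : q.Prime) {Q₁ : Subgroup G} (hQ₁ : IsPGroup q Q₁) (hne : Q₁ ≠ ⊥) :
    ⁅Q₁, Q₁⁆ < Q₁ := by
  haveI : Fact q.Prime := ⟨hq⟩
  refine lt_of_le_of_ne (y0_le Q₁) ?_
  intro heq
  haveI : Nontrivial Q₁ := (Subgroup.nontrivial_iff_ne_bot Q₁).mpr hne
  haveI : Group.IsNilpotent Q₁ := hQ₁.isNilpotent
  have hlt : commutator Q₁ < ⊤ := IsSolvable.commutator_lt_top_of_nontrivial (G := Q₁)
  apply hlt.ne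
  rw [eq_top_iff]
  intro z _
  rw [mem_commutator_subtype_iff, heq]
  exact z.2

/-- The uniqueness template. -/
theorem Facts.uniq_top (hF : Facts q K Q D₁)
    (hU : ∀ Y : Subgroup G, ⁅⁅Q, D₁⁆, ⁅Q, D₁⁆⁆ ≤ Y → Y < ⁅Q, D₁⁆ →
      D₁ ≤ Subgroup.normalizer (Y : Set G) → K ≤ Subgroup.normalizer (Y : Set G) →
      Y = ⁅⁅Q, D₁⁆, ⁅Q, D₁⁆⁆)
    (Y : Subgroup G) (h0 : ⁅⁅Q, D₁⁆, ⁅Q, D₁⁆⁆ ≤ Y) (h1 : Y ≤ ⁅Q, D₁⁆)
    (hD : ∀ g ∈ D₁, ∀ y ∈ Y, g * y * g⁻¹ ∈ Y) (hK : ∀ g ∈ K, ∀ y ∈ Y, g * y * g⁻¹ ∈ Y)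
    (hne : Y ≠ ⁅⁅Q, D₁⁆, ⁅Q, D₁⁆⁆) : Y = ⁅Q, D₁⁆ := by
  by_contra hlt
  exact hne (hU Y h0 (lt_of_le_of_ne h1 hlt) (le_normalizer_of_conj hD) (le_normalizer_of_conj hK))

end facts

end Cfsg.Agent.Lib.Helper12.BG37
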