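import Cfsg.Agent.Lib.Helper12.BG37.Common

/-!
# Package PK6c of the S1437 team project: the centre argument `[Q₁, Q] ≤ Y₀`
-/

set_option autoImplicit false

namespace Cfsg.Agent.Lib.Helper12.BG37

open Cfsg Cfsg.Agent.Lib.Helper6.BG37

universe u

theorem pk6c : Cfsg.Agent.Lib.Helper6.BG37.PK6c.{u} := by
  intro G _ _ q N K Q D₁ hC hQD hU x hx y hy
  have hF := facts_of hC hQD
  have : Fact q.Prime := ⟨hF.hq⟩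
  by_cases hbot : ⁅Q, D₁⁆ = ⊥
  · rw [hbot, Subgroup.mem_bot] at hx
    have e : x * y * x⁻¹ * y⁻¹ = 1 := by rw [hx]; group
    rw [e]; exact Subgroup.one_mem _
  have hlt : ⁅⁅Q, D₁⁆, ⁅Q, D₁⁆⁆ < ⁅Q, D₁⁆ := y0_lt hF.hq hF.q1_pgroup hbot
  have hQ₁Y : ∀ g ∈ ⁅Q, D₁⁆, ∀ y ∈ ⁅⁅Q, D₁⁆, ⁅Q, D₁⁆⁆, g * y * g⁻¹ ∈ ⁅⁅Q, D₁⁆, ⁅Q, D₁⁆⁆ :=
    fun g hg => conj_y0 g (fun y hy =>
      Subgroup.mul_mem _ (Subgroup.mul_mem _ hg hy) (Subgroup.inv_mem _ hg))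
  have hQY : ∀ g ∈ Q, ∀ y ∈ ⁅⁅Q, D₁⁆, ⁅Q, D₁⁆⁆, g * y * g⁻¹ ∈ ⁅⁅Q, D₁⁆, ⁅Q, D₁⁆⁆ :=
    fun g hg => conj_y0 g (hF.conjQ_q1 g hg)
  have hDY : ∀ g ∈ D₁, ∀ y ∈ ⁅⁅Q, D₁⁆, ⁅Q, D₁⁆⁆, g * y * g⁻¹ ∈ ⁅⁅Q, D₁⁆, ⁅Q, D₁⁆⁆ :=
    fun g hg => conj_y0 g (hF.conjD_q1 g hg)
  have hKY : ∀ g ∈ K, ∀ y ∈ ⁅⁅Q, D₁⁆, ⁅Q, D₁⁆⁆, g * y * g⁻¹ ∈ ⁅⁅Q, D₁⁆, ⁅Q, D₁⁆⁆ :=
    fun g hg => conj_y0 g (hF.conjK_q1 g hg)
  let Y : Subgroup G :=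
    { carrier := {x | x ∈ ⁅Q, D₁⁆ ∧ ∀ y ∈ Q, x * y * x⁻¹ * y⁻¹ ∈ ⁅⁅Q, D₁⁆, ⁅Q, D₁⁆⁆}
      one_mem' := ⟨Subgroup.one_mem _, fun d _ => by
        have e : (1 : G) * d * (1 : G)⁻¹ * d⁻¹ = 1 := by group
        rw [e]; exact Subgroup.one_mem _⟩
      mul_mem' := by
        rintro a b ⟨ha, ha'⟩ ⟨hb, hb'⟩
        refine ⟨Subgroup.mul_mem _ ha hb, fun d hd => ?_⟩
        have e : a * b * d * (a * b)⁻¹ * d⁻¹ =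
            a * (b * d * b⁻¹ * d⁻¹) * a⁻¹ * (a * d * a⁻¹ * d⁻¹) := by group
        rw [e]
        exact Subgroup.mul_mem _ (hQ₁Y a ha _ (hb' d hd)) (ha' d hd)
      inv_mem' := by
        rintro a ⟨ha, ha'⟩
        refine ⟨Subgroup.inv_mem _ ha, fun d hd => ?_⟩
        have e : a⁻¹ * d * a⁻¹⁻¹ * d⁻¹ = a⁻¹ * (a * d * a⁻¹ * d⁻¹)⁻¹ * a⁻¹⁻¹ := by group
        rw [e]
        exact hQ₁Y a⁻¹ (Subgroup.inv_mem _ ha) _ (Subgroup.inv_mem _ (ha' d hd)) }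
  have hYmem : ∀ z, z ∈ Y ↔
      z ∈ ⁅Q, D₁⁆ ∧ ∀ y ∈ Q, z * y * z⁻¹ * y⁻¹ ∈ ⁅⁅Q, D₁⁆, ⁅Q, D₁⁆⁆ := fun z => Iff.rfl
  have h0 : ⁅⁅Q, D₁⁆, ⁅Q, D₁⁆⁆ ≤ Y := by
    intro z hz
    refine (hYmem z).2 ⟨hlt.le hz, fun d hd => ?_⟩
    have e : z * d * z⁻¹ * d⁻¹ = z * (d * z⁻¹ * d⁻¹) := by group
    rw [e]
    exact Subgroup.mul_mem _ hz (hQY d hd _ (Subgroup.inv_mem _ hz))
  have h1 : Y ≤ ⁅Q, D₁⁆ := fun z hz => ((hYmem z).1 hz).1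
  have hinv : ∀ g : G, (∀ d ∈ Q, g⁻¹ * d * g ∈ Q) → (∀ y ∈ ⁅Q, D₁⁆, g * y * g⁻¹ ∈ ⁅Q, D₁⁆) →
      (∀ y ∈ ⁅⁅Q, D₁⁆, ⁅Q, D₁⁆⁆, g * y * g⁻¹ ∈ ⁅⁅Q, D₁⁆, ⁅Q, D₁⁆⁆) →
      ∀ y ∈ Y, g * y * g⁻¹ ∈ Y := by
    intro g hgD hgQ hgY y hy
    obtain ⟨hy1, hy2⟩ := (hYmem y).1 hy
    refine (hYmem _).2 ⟨hgQ y hy1, fun d hd => ?_⟩
    have e : g * y * g⁻¹ * d * (g * y * g⁻¹)⁻¹ * d⁻¹ =
        g * (y * (g⁻¹ * d * g) * y⁻¹ * (g⁻¹ * d * g)⁻¹) * g⁻¹ := by group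
    rw [e]
    exact hgY _ (hy2 _ (hgD d hd))
  have hD : ∀ g ∈ D₁, ∀ y ∈ Y, g * y * g⁻¹ ∈ Y := fun g hg =>
    hinv g (fun d hd => by
      have := hF.hDQ g⁻¹ (D₁.inv_mem hg) d hd
      simpa using this) (hF.conjD_q1 g hg) (hDY g hg)
  have hK : ∀ g ∈ K, ∀ y ∈ Y, g * y * g⁻¹ ∈ Y := fun g hg =>
    hinv g (fun d hd => by
      have := hF.hKQ g⁻¹ (K.inv_mem hg) d hd
      simpa using this) (hF.conjK_q1 g hg) (hKY g hg)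
  have hne : Y ≠ ⁅⁅Q, D₁⁆, ⁅Q, D₁⁆⁆ := by
    let Y₀Q : Subgroup ↥Q := Subgroup.subgroupOf ⁅⁅Q, D₁⁆, ⁅Q, D₁⁆⁆ Q
    have hnorm : Y₀Q.Normal := by
      constructor
      intro n hn g
      rw [Subgroup.mem_subgroupOf] at hn ⊢
      simpa using hQY g g.2 n hn
    have hR : IsPGroup q (↥Q ⧸ Y₀Q) := hF.hQq.to_quotient Y₀Q
    let Dq : Subgroup (↥Q ⧸ Y₀Q) :=
      (Subgroup.subgroupOf ⁅Q, D₁⁆ Q).map (QuotientGroup.mk' Y₀Q)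
    have hDn : Dq.Normal := by
      have hn1 : (Subgroup.subgroupOf ⁅Q, D₁⁆ Q).Normal := by
        constructor
        intro n hn g
        rw [Subgroup.mem_subgroupOf] at hn ⊢
        simpa using hF.conjQ_q1 g g.2 n hn
      exact Subgroup.Normal.map hn1 _ (QuotientGroup.mk'_surjective _)
    have hDne : Dq ≠ ⊥ := by
      obtain ⟨x₀, hx₀, hx₀Y⟩ := SetLike.exists_of_lt hlt
      intro h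
      have hmem : QuotientGroup.mk' Y₀Q ⟨x₀, hF.q1_le hx₀⟩ ∈ Dq :=
        Subgroup.mem_map_of_mem _ (by rw [Subgroup.mem_subgroupOf]; exact hx₀)
      rw [h, Subgroup.mem_bot, QuotientGroup.mk'_apply, QuotientGroup.eq_one_iff] at hmem
      exact hx₀Y (by rw [Subgroup.mem_subgroupOf] at hmem; exact hmem)
    obtain ⟨z, hzD, hz1, hzc⟩ :=
      Cfsg.Agent.Lib.Helper53.exists_mem_center_of_normal_of_ne_bot hR Dq hDne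
    obtain ⟨w, hw, rfl⟩ := hzD
    have hw : (w : G) ∈ ⁅Q, D₁⁆ := Subgroup.mem_subgroupOf.mp hw
    have hwY0 : (w : G) ∉ ⁅⁅Q, D₁⁆, ⁅Q, D₁⁆⁆ := by
      intro h
      apply hz1
      rw [QuotientGroup.mk'_apply, QuotientGroup.eq_one_iff, Subgroup.mem_subgroupOf]
      exact h
    have hwY : (w : G) ∈ Y := by
      refine (hYmem _).2 ⟨hw, fun y hy => ?_⟩
      have hc := Subgroup.mem_center_iff.mp hzc (QuotientGroup.mk' Y₀Q ⟨y, hy⟩)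
      have h2 : QuotientGroup.mk' Y₀Q (w * ⟨y, hy⟩ * w⁻¹ * (⟨y, hy⟩ : ↥Q)⁻¹) = 1 := by
        rw [map_mul, map_mul, map_mul, map_inv, map_inv, ← hc]; group
      rw [QuotientGroup.mk'_apply, QuotientGroup.eq_one_iff, Subgroup.mem_subgroupOf] at h2
      simpa using h2
    intro h
    exact hwY0 (h ▸ hwY)
  have htop : Y = ⁅Q, D₁⁆ := hF.uniq_top hU Y h0 h1 hD hK hne
  have hxY : x ∈ Y := htop ▸ hx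
  exact ((hYmem x).1 hxY).2 y hy

end Cfsg.Agent.Lib.Helper12.BG37
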