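import Cfsg.Agent.Lib.Helper12.BG37.Common

/-!
# Package PK6d of the S1437 team project: `Q₁/Y₀` has exponent `q`
-/

set_option autoImplicit false

namespace Cfsg.Agent.Lib.Helper12.BG37

open Cfsg Cfsg.Agent.Lib.Helper6.BG37

universe u

theorem pk6d : Cfsg.Agent.Lib.Helper6.BG37.PK6d.{u} := by
  intro G _ _ q N K Q D₁ hC hQD hU x hx
  have hF := facts_of hC hQD
  have : Fact q.Prime := ⟨hF.hq⟩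
  by_cases hbot : ⁅Q, D₁⁆ = ⊥
  · rw [hbot, Subgroup.mem_bot] at hx
    rw [hx, one_pow]; exact Subgroup.one_mem _
  have hlt : ⁅⁅Q, D₁⁆, ⁅Q, D₁⁆⁆ < ⁅Q, D₁⁆ := y0_lt hF.hq hF.q1_pgroup hbot
  have hDY : ∀ g ∈ D₁, ∀ y ∈ ⁅⁅Q, D₁⁆, ⁅Q, D₁⁆⁆, g * y * g⁻¹ ∈ ⁅⁅Q, D₁⁆, ⁅Q, D₁⁆⁆ :=
    fun g hg => conj_y0 g (hF.conjD_q1 g hg)
  have hKY : ∀ g ∈ K, ∀ y ∈ ⁅⁅Q, D₁⁆, ⁅Q, D₁⁆⁆, g * y * g⁻¹ ∈ ⁅⁅Q, D₁⁆, ⁅Q, D₁⁆⁆ :=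
    fun g hg => conj_y0 g (hF.conjK_q1 g hg)
  let π : ↥⁅Q, D₁⁆ →* Abelianization ↥⁅Q, D₁⁆ := Abelianization.of
  have hπ : ∀ z : ↥⁅Q, D₁⁆, π z = 1 ↔ (z : G) ∈ ⁅⁅Q, D₁⁆, ⁅Q, D₁⁆⁆ := by
    intro z
    rw [← mem_commutator_subtype_iff, ← Abelianization.ker_of, MonoidHom.mem_ker]
  let Y : Subgroup G := (MonoidHom.ker ((powMonoidHom q).comp π)).map (Subgroup.subtype _)
  have hYmem : ∀ z, z ∈ Y ↔ z ∈ ⁅Q, D₁⁆ ∧ z ^ q ∈ ⁅⁅Q, D₁⁆, ⁅Q, D₁⁆⁆ := by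
    intro z
    constructor
    · rintro ⟨w, hw, rfl⟩
      refine ⟨w.2, ?_⟩
      have hw' : π w ^ q = 1 := hw
      rw [← map_pow, hπ] at hw'
      simpa using hw'
    · rintro ⟨hz, hzq⟩
      refine ⟨⟨z, hz⟩, ?_, rfl⟩
      change π ⟨z, hz⟩ ^ q = 1
      rw [← map_pow, hπ]
      simpa using hzq
  have h0 : ⁅⁅Q, D₁⁆, ⁅Q, D₁⁆⁆ ≤ Y := fun z hz =>
    (hYmem z).2 ⟨hlt.le hz, Subgroup.pow_mem _ hz _⟩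
  have h1 : Y ≤ ⁅Q, D₁⁆ := fun z hz => ((hYmem z).1 hz).1
  have hinv : ∀ g : G, (∀ y ∈ ⁅Q, D₁⁆, g * y * g⁻¹ ∈ ⁅Q, D₁⁆) →
      (∀ y ∈ ⁅⁅Q, D₁⁆, ⁅Q, D₁⁆⁆, g * y * g⁻¹ ∈ ⁅⁅Q, D₁⁆, ⁅Q, D₁⁆⁆) →
      ∀ y ∈ Y, g * y * g⁻¹ ∈ Y := by
    intro g hgQ hgY y hy
    obtain ⟨hy1, hy2⟩ := (hYmem y).1 hy
    refine (hYmem _).2 ⟨hgQ y hy1, ?_⟩
    rw [conj_pow]
    exact hgY _ hy2
  have hD : ∀ g ∈ D₁, ∀ y ∈ Y, g * y * g⁻¹ ∈ Y := fun g hg =>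
    hinv g (hF.conjD_q1 g hg) (hDY g hg)
  have hK : ∀ g ∈ K, ∀ y ∈ Y, g * y * g⁻¹ ∈ Y := fun g hg =>
    hinv g (hF.conjK_q1 g hg) (hKY g hg)
  have hne : Y ≠ ⁅⁅Q, D₁⁆, ⁅Q, D₁⁆⁆ := by
    obtain ⟨x₀, hx₀, hx₀Y⟩ := SetLike.exists_of_lt hlt
    have ha : π ⟨x₀, hx₀⟩ ≠ 1 := fun h => hx₀Y ((hπ ⟨x₀, hx₀⟩).1 h)
    have hex : ∃ n, π ⟨x₀, hx₀⟩ ^ (q ^ n) = 1 := by
      obtain ⟨n, hn⟩ := hF.q1_pgroup ⟨x₀, hx₀⟩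
      exact ⟨n, by rw [← map_pow, hn, map_one]⟩
    classical
    obtain ⟨m, hm, hmin⟩ : ∃ m, π ⟨x₀, hx₀⟩ ^ (q ^ m) = 1 ∧
        ∀ k < m, π ⟨x₀, hx₀⟩ ^ (q ^ k) ≠ 1 :=
      ⟨Nat.find hex, Nat.find_spec hex, fun k hk => Nat.find_min hex hk⟩
    have hm0 : m ≠ 0 := by
      intro h0
      rw [h0, pow_zero, pow_one] at hm
      exact ha hm
    obtain ⟨m', rfl⟩ := Nat.exists_eq_succ_of_ne_zero hm0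
    have hmin' := hmin m' (Nat.lt_succ_self m')
    have hw : x₀ ^ (q ^ m') ∈ Y := by
      rw [hYmem]
      refine ⟨Subgroup.pow_mem _ hx₀ _, ?_⟩
      have h2 : π ((⟨x₀, hx₀⟩ : ↥⁅Q, D₁⁆) ^ (q ^ (m' + 1))) = 1 := by rw [map_pow, hm]
      have h3 := (hπ _).1 h2
      rw [← pow_mul, ← pow_succ]
      simpa using h3
    have hwY : x₀ ^ (q ^ m') ∉ ⁅⁅Q, D₁⁆, ⁅Q, D₁⁆⁆ := by
      intro h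
      apply hmin'
      rw [← map_pow, hπ]
      simpa using h
    intro h
    exact hwY (h ▸ hw)
  have htop : Y = ⁅Q, D₁⁆ := hF.uniq_top hU Y h0 h1 hD hK hne
  have hxY : x ∈ Y := htop ▸ hx
  exact ((hYmem x).1 hxY).2

end Cfsg.Agent.Lib.Helper12.BG37
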