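import Cfsg.Agent.Lib.Helper12.BG37.Common

/-!
# Package PK6e of the S1437 team project: `C_{Q₁/Y₀}(D₁) = 1`
-/

set_option autoImplicit false

namespace Cfsg.Agent.Lib.Helper12.BG37

open Cfsg Cfsg.Agent.Lib.Helper6.BG37

universe u

theorem pk6e : Cfsg.Agent.Lib.Helper6.BG37.PK6e.{u} := by
  intro G _ _ q N K Q D₁ hC hQD hU x hx hxd
  have hF := facts_of hC hQD
  haveI : Fact q.Prime := ⟨hF.hq⟩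
  by_cases hbot : ⁅Q, D₁⁆ = ⊥
  · rw [hbot, Subgroup.mem_bot] at hx
    rw [hx]; exact Subgroup.one_mem _
  have hlt : ⁅⁅Q, D₁⁆, ⁅Q, D₁⁆⁆ < ⁅Q, D₁⁆ := y0_lt hF.hq hF.q1_pgroup hbot
  have hQ₁Y : ∀ g ∈ ⁅Q, D₁⁆, ∀ y ∈ ⁅⁅Q, D₁⁆, ⁅Q, D₁⁆⁆, g * y * g⁻¹ ∈ ⁅⁅Q, D₁⁆, ⁅Q, D₁⁆⁆ :=
    fun g hg => conj_y0 g (fun y hy =>
      Subgroup.mul_mem _ (Subgroup.mul_mem _ hg hy) (Subgroup.inv_mem _ hg))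
  have hDY : ∀ g ∈ D₁, ∀ y ∈ ⁅⁅Q, D₁⁆, ⁅Q, D₁⁆⁆, g * y * g⁻¹ ∈ ⁅⁅Q, D₁⁆, ⁅Q, D₁⁆⁆ :=
    fun g hg => conj_y0 g (hF.conjD_q1 g hg)
  have hKY : ∀ g ∈ K, ∀ y ∈ ⁅⁅Q, D₁⁆, ⁅Q, D₁⁆⁆, g * y * g⁻¹ ∈ ⁅⁅Q, D₁⁆, ⁅Q, D₁⁆⁆ :=
    fun g hg => conj_y0 g (hF.conjK_q1 g hg)
  let Y : Subgroup G :=
    { carrier := {x | x ∈ ⁅Q, D₁⁆ ∧ ∀ d ∈ D₁, x * d * x⁻¹ * d⁻¹ ∈ ⁅⁅Q, D₁⁆, ⁅Q, D₁⁆⁆}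
      one_mem' := ⟨Subgroup.one_mem _, fun d _ => by
        have e : (1 : G) * d * (1 : G)⁻¹ * d⁻¹ = 1 := by group
        rw [e]; exact Subgroup.one_mem _⟩
      mul_mem' := by
        rintro a b ⟨ha, ha'⟩ ⟨hb, hb'⟩
        refine ⟨Subgroup.mul_mem _ ha hb, fun d hd => ?_⟩
        have e : a * b * d * (a * b)⁻¹ * d⁻¹ =
            a * (b * d * b⁻¹ * d⁻¹) * a⁻¹ * (a * d * a⁻¹ * d⁻¹) := by group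
        rw [e]
        exact Subgroup.mul_mem _ (hQ₁Y a ha _ (hb' d hd)) (ha' d hd)
      inv_mem' := by
        rintro a ⟨ha, ha'⟩
        refine ⟨Subgroup.inv_mem _ ha, fun d hd => ?_⟩
        have e : a⁻¹ * d * a⁻¹⁻¹ * d⁻¹ = a⁻¹ * (a * d * a⁻¹ * d⁻¹)⁻¹ * a⁻¹⁻¹ := by group
        rw [e]
        exact hQ₁Y a⁻¹ (Subgroup.inv_mem _ ha) _ (Subgroup.inv_mem _ (ha' d hd)) }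
  have hYmem : ∀ z, z ∈ Y ↔
      z ∈ ⁅Q, D₁⁆ ∧ ∀ d ∈ D₁, z * d * z⁻¹ * d⁻¹ ∈ ⁅⁅Q, D₁⁆, ⁅Q, D₁⁆⁆ := fun z => Iff.rfl
  have h0 : ⁅⁅Q, D₁⁆, ⁅Q, D₁⁆⁆ ≤ Y := by
    intro z hz
    refine (hYmem z).2 ⟨hlt.le hz, fun d hd => ?_⟩
    have e : z * d * z⁻¹ * d⁻¹ = z * (d * z⁻¹ * d⁻¹) := by group
    rw [e]
    exact Subgroup.mul_mem _ hz (hDY d hd _ (Subgroup.inv_mem _ hz))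
  have h1 : Y ≤ ⁅Q, D₁⁆ := fun z hz => ((hYmem z).1 hz).1
  have hinv : ∀ g : G, (∀ d ∈ D₁, g⁻¹ * d * g ∈ D₁) → (∀ y ∈ ⁅Q, D₁⁆, g * y * g⁻¹ ∈ ⁅Q, D₁⁆) →
      (∀ y ∈ ⁅⁅Q, D₁⁆, ⁅Q, D₁⁆⁆, g * y * g⁻¹ ∈ ⁅⁅Q, D₁⁆, ⁅Q, D₁⁆⁆) →
      ∀ y ∈ Y, g * y * g⁻¹ ∈ Y := by
    intro g hgD hgQ hgY y hy
    obtain ⟨hy1, hy2⟩ := (hYmem y).1 hy
    refine (hYmem _).2 ⟨hgQ y hy1, fun d hd => ?_⟩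
    have e : g * y * g⁻¹ * d * (g * y * g⁻¹)⁻¹ * d⁻¹ =
        g * (y * (g⁻¹ * d * g) * y⁻¹ * (g⁻¹ * d * g)⁻¹) * g⁻¹ := by group
    rw [e]
    exact hgY _ (hy2 _ (hgD d hd))
  have hD : ∀ g ∈ D₁, ∀ y ∈ Y, g * y * g⁻¹ ∈ Y := fun g hg =>
    hinv g (fun d hd => D₁.mul_mem (D₁.mul_mem (D₁.inv_mem hg) hd) hg) (hF.conjD_q1 g hg)
      (hDY g hg)
  have hK : ∀ g ∈ K, ∀ y ∈ Y, g * y * g⁻¹ ∈ Y := fun g hg =>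
    hinv g (fun d hd => by
      have := hF.hKD g⁻¹ (K.inv_mem hg) d hd
      simpa using this) (hF.conjK_q1 g hg) (hKY g hg)
  by_contra hxY
  have hxYmem : x ∈ Y := (hYmem x).2 ⟨hx, hxd⟩
  have hne : Y ≠ ⁅⁅Q, D₁⁆, ⁅Q, D₁⁆⁆ := fun h => hxY (h ▸ hxYmem)
  have htop : Y = ⁅Q, D₁⁆ := hF.uniq_top hU Y h0 h1 hD hK hne
  have hc1 : ⁅⁅Q, D₁⁆, D₁⁆ ≤ ⁅⁅Q, D₁⁆, ⁅Q, D₁⁆⁆ := by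
    rw [Subgroup.commutator_le]
    intro a ha d hd
    rw [commutatorElement_def]
    have : a ∈ Y := htop ▸ ha
    exact ((hYmem a).1 this).2 d hd
  have hc2 : ⁅Q, D₁⁆ ≤ ⁅⁅Q, D₁⁆, D₁⁆ :=
    Cfsg.Agent.Lib.Helper48.commutator_le_commutator_commutator Q D₁ hF.hQq hF.hDq
      (le_normalizer_of_conj hF.hDQ)
  exact lt_irrefl _ (lt_of_le_of_lt (hc2.trans hc1) hlt)

end Cfsg.Agent.Lib.Helper12.BG37
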